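import Cfsg.Agent.Lib.Helper92.M24Tools
import Cfsg.Agent.Lib.Helper27.Dodecad
import Cfsg.Agent.Lib.Helper27.StabOrders

/-!
# The `M24`-invariant subspaces of the binary permutation module of degree 24

* `sub_code_cases` : an invariant subspace of the Golay code is `0`, `⟨𝟙⟩` or the code
* `even_le` : an invariant subspace not contained in the code contains all even words
-/

set_option autoImplicit false

namespace Cfsg.Agent.Lib.Helper92

open Cfsg
open Cfsg.Agent.Lib.Helper27
open scoped Pointwise

/-- invariant subspaces. -/
def InvSub (W : Submodule (ZMod 2) (GolayPt → ZMod 2)) : Prop := ∀ σ ∈ M24, ∀ w ∈ W, act σ w ∈ W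

/-- the indicator word of a set of points. -/
def wd (s : Finset GolayPt) : GolayPt → ZMod 2 := wordOf (mask s)

theorem support₂_wd (s : Finset GolayPt) : support₂ (wd s) = s := by
  rw [wd, support₂_wordOf, unmask_mask]

theorem wd_support₂ (w : GolayPt → ZMod 2) : wd (support₂ w) = w := wordOf_mask_support₂ w

theorem wd_unmask {m : ℕ} (hm : m < 2 ^ 24) : wd (unmask m) = wordOf m := by
  rw [wd, mask_unmask hm]

theorem act_wd (g : Equiv.Perm GolayPt) (s : Finset GolayPt) : act g (wd s) = wd (g • s) := by
  apply support₂_injective
  rw [support₂_act, support₂_wd, support₂_wd]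

theorem wd_apply (s : Finset GolayPt) (q : GolayPt) : wd s q = if q ∈ s then 1 else 0 := by
  unfold wd wordOf
  simp only [← mem_iff_testBit]

theorem add_self_word (a : GolayPt → ZMod 2) : a + a = 0 := by
  funext p
  have : ∀ x : ZMod 2, x + x = 0 := by decide
  exact this _

variable {W : Submodule (ZMod 2) (GolayPt → ZMod 2)}

/-- an invariant subspace containing an octad contains the code. -/
theorem code_le_of_octad (hW : InvSub W) {o : Finset GolayPt} (ho : o ∈ octads) (h : wd o ∈ W) :
    golayCode ≤ W := by
  have hall : ∀ o' ∈ octads, wd o' ∈ W := by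
    intro o' ho'
    obtain ⟨g, hg, rfl⟩ := octads_transitive ho ho'
    rw [← act_wd]; exact hW g hg _ h
  have hchk : ∀ j < 12, isCode (basisMask j) = true ∧ pc (basisMask j) = 8 := by decide +kernel
  have hb : ∀ j < 12, wordOf (basisMask j) ∈ W := by
    intro j hj
    have h1 := hall _ (unmask_mem_octads (hchk j hj).1 (hchk j hj).2)
    rwa [wd_unmask (basisMask_lt j)] at h1
  have henc : ∀ k n, n ≤ 12 → wordOf (encAux k n) ∈ W := by
    intro k n
    induction n with
    | zero => intro _; rw [encAux_zero, wordOf_zero]; exact W.zero_mem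
    | succ n ih =>
      intro hn
      rw [encAux_succ, wordOf_xor, bit_mul]
      apply W.add_mem (ih (by omega))
      by_cases h : k.testBit n = true
      · rw [if_pos h]; exact hb n (by omega)
      · rw [if_neg h, wordOf_zero]; exact W.zero_mem
  intro w hw
  rw [mem_golayCode_iff, isCode_iff] at hw
  rw [← wordOf_mask_support₂ w, ← hw, enc_eq_encSpec]
  exact henc _ 12 le_rfl

/-- an invariant subspace containing a codeword at distance 8 from one of its images contains the
code. -/
theorem code_le_of_move (hW : InvSub W) {R c : ℕ} (hR : isCode R = true) (hc : checkM24 c = true)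
    (h8 : pc (permMask c R ^^^ R) = 8) (h : wordOf R ∈ W) : golayCode ≤ W := by
  have hv := valid_of_check hc
  have hx : isCode (permMask c R ^^^ R) = true := isCode_xor (isCode_permMask_of_check hc hR) hR
  apply code_le_of_octad hW (unmask_mem_octads hx h8)
  rw [wd_unmask (isCode_lt hx), wordOf_xor, ← act_wordOf hv (isCode_lt hR)]
  exact W.add_mem (hW _ (permOf_mem_M24 hc) _ h) h

theorem smul_compl (g : Equiv.Perm GolayPt) (s : Finset GolayPt) : g • sᶜ = (g • s)ᶜ := by
  rw [Finset.compl_eq_univ_sdiff, Finset.smul_finset_sdiff, Finset.smul_finset_univ,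
    Finset.compl_eq_univ_sdiff]

theorem compl_mem_octads {s : Finset GolayPt} (hc : isCode (mask s) = true) (h : pc (mask s) = 16) :
    sᶜ ∈ octads := by
  rw [mem_octads_iff, mask_compl]
  have h1 : isCode (2 ^ 24 - 1) = true := by decide +kernel
  refine ⟨isCode_xor hc h1, ?_⟩
  have h2 := pc_xor_add (mask_lt s) (show 2 ^ 24 - 1 < 2 ^ 24 by norm_num)
  have h3 : mask s &&& (2 ^ 24 - 1) = mask s := by
    rw [Nat.and_two_pow_sub_one_eq_mod, Nat.mod_eq_of_lt (mask_lt _)]
  have h4 : pc (2 ^ 24 - 1) = 24 := by decide +kernel
  rw [h3, h4, h] at h2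
  omega

/-- the words of an invariant subspace of the code not containing the code. -/
theorem eq_zero_or_one (hW : InvSub W) (hC : ¬ golayCode ≤ W) {w : GolayPt → ZMod 2} (hw : w ∈ W)
    (hwC : w ∈ golayCode) : w = 0 ∨ w = fun _ => 1 := by
  have hc := (mem_golayCode_iff w).1 hwC
  have hcard := card_eq_pc (support₂ w)
  rcases pc_of_isCode hc with h | h | h | h | h
  · left
    have h0 : support₂ w = ∅ := by rw [← Finset.card_eq_zero, hcard, h]
    rw [← wd_support₂ w, h0]
    funext q; rw [wd_apply]; simp
  · exfalso; apply hC
    exact code_le_of_octad hW (o := support₂ w) ((mem_octads_iff _).2 ⟨hc, h⟩)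
      (by rw [wd_support₂]; exact hw)
  · exfalso; apply hC
    obtain ⟨g, hg, hgo⟩ := dodecad_to_std ((mem_dodecads_iff _).2 ⟨hc, h⟩)
    apply code_le_of_move hW (R := stdDodecad) (c := 734212550907957554434150466631834125)
      (by decide +kernel) (by decide +kernel) (by decide +kernel)
    rw [← wd_unmask (by decide +kernel), ← hgo, ← act_wd, wd_support₂]
    exact hW g hg _ hw
  · exfalso; apply hC
    obtain ⟨g, hg, hgo⟩ := octad_to_std (compl_mem_octads hc h)
    apply code_le_of_move hW (R := 8241104) (c := 260234727306227520176000704900601511)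
      (by decide +kernel) (by decide +kernel) (by decide +kernel)
    have h1 : g • support₂ w = unmask 8241104 := by
      have h2 : g • support₂ w = (unmask stdOctad)ᶜ := by rw [← hgo, smul_compl, compl_compl]
      rw [h2]
      apply mask_injective
      rw [mask_compl, mask_unmask (by decide +kernel), mask_unmask (by decide +kernel)]
      decide +kernel
    rw [← wd_unmask (by decide +kernel), ← h1, ← act_wd, wd_support₂]
    exact hW g hg _ hw
  · right
    have h0 : support₂ w = Finset.univ := by
      rw [← Finset.card_eq_iff_eq_univ, hcard, h]; decide +kernel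
    rw [← wd_support₂ w, h0]
    funext q; rw [wd_apply]; simp

/-- **the invariant subspaces of the code.** -/
theorem sub_code_cases (hW : InvSub W) (hle : W ≤ golayCode) :
    W = ⊥ ∨ W = Submodule.span (ZMod 2) {fun _ => (1 : ZMod 2)} ∨ W = golayCode := by
  by_cases hC : golayCode ≤ W
  · right; right; exact le_antisymm hle hC
  · have key : ∀ w ∈ W, w = 0 ∨ w = fun _ => 1 := fun w hw => eq_zero_or_one hW hC hw (hle hw)
    by_cases h1 : (fun _ => (1 : ZMod 2)) ∈ W
    · right; left
      apply le_antisymm
      · intro w hw
        rcases key w hw with rfl | rfl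
        · exact Submodule.zero_mem _
        · exact Submodule.subset_span rfl
      · rw [Submodule.span_le]
        rintro _ rfl
        exact h1
    · left
      rw [eq_bot_iff]
      intro w hw
      rcases key w hw with rfl | rfl
      · exact Submodule.zero_mem _
      · exact absurd hw h1

theorem InvSub.inf_code (hW : InvSub W) : InvSub (W ⊓ golayCode) :=
  fun σ hσ w hw => ⟨hW σ hσ w hw.1, act_mem_golayCode hσ hw.2⟩

/-! ### subspaces not contained in the code -/

/-- at most four points can be moved into the four standard points. -/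
theorem exists_move_four (s : Finset GolayPt) (hs : s.card ≤ 4) :
    ∃ g ∈ M24, g • s ⊆ unmask 8388615 := by
  obtain ⟨T, hsT, hT⟩ := Finset.exists_superset_card_eq hs
    (show 4 ≤ Fintype.card GolayPt by decide +kernel)
  let e : Fin 4 ≃ T := (Finset.equivFinOfCardEq hT).symm
  have hne : ∀ i j : Fin 4, i ≠ j → (e i : GolayPt) ≠ e j :=
    fun i j h h' => h (e.injective (Subtype.ext h'))
  obtain ⟨g, hg, h0, h1, h2, h3⟩ := std4 (hne 0 1 (by decide)) (hne 0 2 (by decide))
    (hne 0 3 (by decide)) (hne 1 2 (by decide)) (hne 1 3 (by decide)) (hne 2 3 (by decide))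
  refine ⟨g, hg, ?_⟩
  intro q hq
  obtain ⟨p, hp, rfl⟩ := Finset.mem_smul_finset.1 hq
  obtain ⟨i, hi⟩ := e.surjective ⟨p, hsT hp⟩
  have hpi : p = e i := by rw [hi]
  show g p ∈ _
  rw [hpi]
  have hi4 : ∀ i : Fin 4, i = 0 ∨ i = 1 ∨ i = 2 ∨ i = 3 := by decide
  rcases hi4 i with rfl | rfl | rfl | rfl
  · rw [h0]; decide +kernel
  · rw [h1]; decide +kernel
  · rw [h2]; decide +kernel
  · rw [h3]; decide +kernel

/-- generators of the pointwise stabiliser of the four standard points. -/
def gensK : List ℕ :=
  [969068320379631266033040373197768736, 983298441375648284054396014667892768]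

/-- elements fixing three of the four standard points and moving the fourth one away. -/
def gensX : List ℕ :=
  [550647755570468528511990753517701152, 967493043338274903979807086136068134,
   982042923001034664658104590040992224, 960879408888840256946809824378082336]

theorem gensK_check : ∀ c ∈ gensK, checkFix L4 c = true := by decide +kernel

theorem gensX_check : ∀ c ∈ gensX, checkM24 c = true := by decide +kernel

theorem codeK : ∀ k, isCode k = true →
    Cfsg.Agent.Lib.Helper92.bor (Nat.beq k 0) (Cfsg.Agent.Lib.Helper92.bor (Nat.beq k 16777215)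
      (anyList (fun c => band (bnot (Nat.beq (Nat.xor (permMask c k) k) 0))
        (bnot (Nat.beq (Nat.xor (permMask c k) k) 16777215))) gensK)) = true :=
  forall_isCode _ (by decide +kernel)

/-- the masks of the subsets of the four standard points. -/
def subsList : List ℕ :=
  [0, 1, 2, 3, 4, 5, 6, 7, 8388608, 8388609, 8388610, 8388611, 8388612, 8388613, 8388614, 8388615]

theorem mem_subsList {x : ℕ} (h : x &&& 8388615 = x) : x ∈ subsList := by
  have h1 : x = (x % 8) ||| ((x.testBit 23).toNat * 2 ^ 23) := by
    conv_lhs => rw [← h, show (8388615 : ℕ) = (2 ^ 3 - 1) ||| 2 ^ 23 from rfl,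
      Nat.and_or_distrib_left, Nat.and_two_pow_sub_one_eq_mod, Nat.and_two_pow]
  have h8 : x % 8 < 8 := Nat.mod_lt _ (by norm_num)
  rw [h1]
  generalize x % 8 = a at h8
  generalize x.testBit 23 = b
  interval_cases a <;> cases b <;> decide

theorem subsX : ∀ x ∈ subsList, x ≠ 0 →
    anyList (fun c => Nat.beq (pc (Nat.xor (permMask c x) x)) 2) gensX = true := by
  decide +kernel

theorem one_eq_wordOf' : (fun _ => 1 : GolayPt → ZMod 2) = wordOf 16777215 := by
  funext q
  have : ∀ q : GolayPt, (16777215 : ℕ).testBit (idx q) = true := by decide +kernel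
  unfold wordOf
  rw [if_pos (this q)]

/-- an invariant subspace not contained in the code contains a word of weight 2. -/
theorem exists_weight_two (hW : InvSub W) {w : GolayPt → ZMod 2} (hw : w ∈ W)
    (hwC : w ∉ golayCode) : ∃ d, d < 2 ^ 24 ∧ pc d = 2 ∧ wordOf d ∈ W := by
  -- the coset leader
  set m := mask (support₂ w) with hm
  have hm24 : m < 2 ^ 24 := mask_lt _
  set e0 := leader (syn m) with he0
  have hk0 : isCode (m ^^^ e0) = true := isCode_xor_leader hm24
  have he024 : e0 < 2 ^ 24 := leader_lt _
  have hpc : pc e0 ≤ 4 := pc_leader_le hm24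
  obtain ⟨g, hg, hgs⟩ := exists_move_four (unmask e0) (by rw [card_unmask]; exact hpc)
  -- the moved word
  have hw' : act g w ∈ W := hW g hg w hw
  have hw'C : act g w ∉ golayCode := by rw [act_mem_golayCode_iff hg]; exact hwC
  have hsplit : w = wd (unmask (m ^^^ e0)) + wd (unmask e0) := by
    rw [wd_unmask (isCode_lt hk0), wd_unmask he024, ← wordOf_xor, Nat.xor_assoc, Nat.xor_self,
      Nat.xor_zero, hm, wordOf_mask_support₂]
  set K := g • unmask (m ^^^ e0) with hK
  set E := g • unmask e0 with hE
  have hsplit' : act g w = wd K + wd E := by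
    conv_lhs => rw [hsplit]
    rw [act_add, act_wd, act_wd]
  have hKc : wd K ∈ golayCode := by
    rw [hK, ← act_wd, act_mem_golayCode_iff hg, wd_unmask (isCode_lt hk0),
      wordOf_mem_iff (isCode_lt hk0)]
    exact hk0
  have hKc' : isCode (mask K) = true := by
    have := (mem_golayCode_iff _).1 hKc
    rwa [support₂_wd] at this
  have hEne : E ≠ ∅ := by
    intro h0
    apply hw'C
    rw [hsplit', h0]
    have : wd (∅ : Finset GolayPt) = 0 := by funext q; rw [wd_apply]; simp
    rw [this, add_zero]; exact hKc
  -- the word `wd E` or its complement lies in `W`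
  have hmain : wd E ∈ W ∨ wd E + wordOf 16777215 ∈ W := by
    by_cases hC : golayCode ≤ W
    · left
      have h1 := W.add_mem hw' (hC hKc)
      rwa [hsplit', add_comm (wd K), add_assoc, add_self_word, add_zero] at h1
    · have hC' : ¬ golayCode ≤ W ⊓ golayCode := fun h => hC (le_trans h inf_le_left)
      have h1 := codeK (mask K) hKc'
      rw [bor_eq, bor_eq, Bool.or_eq_true, Bool.or_eq_true, anyList_iff, Nat.beq_eq,
        Nat.beq_eq] at h1
      rcases h1 with h1 | h1 | ⟨c, hc, h1⟩
      · left
        have : wd K = 0 := by rw [wd, h1, wordOf_zero]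
        rwa [hsplit', this, zero_add] at hw'
      · right
        have : wd K = wordOf 16777215 := by rw [wd, h1]
        rwa [hsplit', this, add_comm] at hw'
      · exfalso
        rw [band_eq, Bool.and_eq_true, bnot_eq_true, bnot_eq_true] at h1
        have hcf := gensK_check c hc
        have hmem := permOf_mem_fixer hcf
        have hv := valid_of_checkFix hcf
        -- `permOf c` fixes `E`
        have hfixE : permOf c • E = E := by
          apply smul_eq_of_fixes
          intro p hp
          have hp4 : ∀ p : GolayPt, p ∈ unmask 8388615 →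
              p = pt 23 ∨ p = pt 0 ∨ p = pt 1 ∨ p = pt 2 := by decide +kernel
          rcases hp4 p (hgs hp) with rfl | rfl | rfl | rfl
          · exact fixer_fix hmem (by norm_num) (by simp [L4])
          · exact fixer_fix hmem (by norm_num) (by simp [L4])
          · exact fixer_fix hmem (by norm_num) (by simp [L4])
          · exact fixer_fix hmem (by norm_num) (by simp [L4])
        have h2 : act (permOf c) (act g w) + act g w ∈ W := W.add_mem (hW _ hmem.1 _ hw') hw'
        have h3 : act (permOf c) (act g w) + act g w =
            wordOf (permMask c (mask K) ^^^ mask K) := by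
          rw [hsplit', act_add, act_wd _ E, hfixE, wordOf_xor, ← act_wordOf hv (mask_lt K)]
          have : ∀ a b c : GolayPt → ZMod 2, a + c + (b + c) = a + b := by
            intro a b c
            rw [add_add_add_comm, add_self_word, add_zero]
          exact this _ _ _
        have hx : isCode (permMask c (mask K) ^^^ mask K) = true :=
          isCode_xor (isCode_permMask_of_check (by
            unfold checkFix at hcf
            rw [band_eq, Bool.and_eq_true] at hcf
            exact hcf.1) hKc') hKc'
        have h4 : wordOf (permMask c (mask K) ^^^ mask K) ∈ W ⊓ golayCode :=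
          ⟨h3 ▸ h2, (wordOf_mem_iff (isCode_lt hx)).2 hx⟩
        rcases eq_zero_or_one hW.inf_code hC' h4 h4.2 with h5 | h5
        · rw [← wordOf_zero] at h5
          have := wordOf_injOn (isCode_lt hx) (by norm_num) h5
          have h6 : Nat.beq (Nat.xor (permMask c (mask K)) (mask K)) 0 = true := by
            rw [Nat.beq_eq]; exact this
          rw [h1.1] at h6
          exact absurd h6 (by simp)
        · rw [one_eq_wordOf'] at h5
          have := wordOf_injOn (isCode_lt hx) (by norm_num) h5
          have h6 : Nat.beq (Nat.xor (permMask c (mask K)) (mask K)) 16777215 = true := by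
            rw [Nat.beq_eq]; exact this
          rw [h1.2] at h6
          exact absurd h6 (by simp)
  -- now produce the word of weight 2
  have hEm : mask E &&& 8388615 = mask E := by
    have := subset_iff_mask.1 hgs
    rwa [mask_unmask (by norm_num)] at this
  have hEm0 : mask E ≠ 0 := by
    intro h0
    apply hEne
    rw [← unmask_mask E, h0]
    rfl
  have h2 := subsX (mask E) (mem_subsList hEm) hEm0
  rw [anyList_iff] at h2
  obtain ⟨c, hc, h2⟩ := h2
  rw [Nat.beq_eq] at h2
  have hcm := gensX_check c hc
  have hv := valid_of_check hcm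
  refine ⟨permMask c (mask E) ^^^ mask E, Nat.xor_lt_two_pow (permMask_lt hv (mask_lt E)) (mask_lt E),
    h2, ?_⟩
  rw [wordOf_xor, ← act_wordOf hv (mask_lt E)]
  rcases hmain with h | h
  · exact W.add_mem (hW _ (permOf_mem_M24 hcm) _ h) h
  · have h3 := W.add_mem (hW _ (permOf_mem_M24 hcm) _ h) h
    have h4 : act (permOf c) (wordOf 16777215) = wordOf 16777215 := by
      rw [← one_eq_wordOf']; rfl
    rw [act_add, h4] at h3
    have : ∀ a b c : GolayPt → ZMod 2, a + c + (b + c) = a + b := by
      intro a b c
      rw [add_add_add_comm, add_self_word, add_zero]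
    rw [this] at h3
    exact h3

/-- **an invariant subspace not contained in the code contains all even words.** -/
theorem even_le (hW : InvSub W) {w : GolayPt → ZMod 2} (hw : w ∈ W) (hwC : w ∉ golayCode) :
    ∀ v : GolayPt → ZMod 2, ∑ p, v p = 0 → v ∈ W := by
  obtain ⟨d, hd, hd2, hdW⟩ := exists_weight_two hW hw hwC
  rw [← card_unmask, Finset.card_eq_two] at hd2
  obtain ⟨a, b, hab, hdab⟩ := hd2
  have hpair : ∀ p q : GolayPt, p ≠ q → wd {p, q} ∈ W := by
    intro p q hpq
    obtain ⟨g, hg, h1, h2⟩ := trans2pt hab hpq
    have h3 : g • ({a, b} : Finset GolayPt) = {p, q} := by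
      rw [Finset.smul_finset_insert, Finset.smul_finset_singleton]
      show {g a, g b} = _
      rw [h1, h2]
    rw [← h3, ← act_wd, ← hdab, wd_unmask hd]
    exact hW g hg _ hdW
  intro v hv
  have hsum : v = ∑ p, v p • (if p = none then (0 : GolayPt → ZMod 2) else wd {p, none}) := by
    funext q
    rw [Finset.sum_apply]
    simp only [Pi.smul_apply, smul_eq_mul]
    have h1 : ∀ p : GolayPt, v p * (if p = none then (0 : GolayPt → ZMod 2) else wd {p, none}) q =
        (if p = q then v p else 0) + (if q = none then v p else 0) := by
      intro p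
      by_cases hp : p = none
      · subst hp
        rw [if_pos rfl]
        by_cases hq : q = none
        · subst hq
          simp only [if_true, Pi.zero_apply, mul_zero]
          have : ∀ x : ZMod 2, 0 = x + x := by decide
          exact this _
        · rw [if_neg hq, if_neg (fun h => hq h.symm)]; simp
      · rw [if_neg hp, wd_apply]
        by_cases hq : q = none
        · subst hq
          rw [if_neg hp]; simp
        · rw [if_neg hq]
          by_cases hpq : p = q
          · subst hpq; simp
          · rw [if_neg hpq, if_neg]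
            · simp
            · simp only [Finset.mem_insert, Finset.mem_singleton, not_or]
              exact ⟨fun h => hpq h.symm, hq⟩
    rw [Finset.sum_congr rfl (fun p _ => h1 p), Finset.sum_add_distrib, Finset.sum_ite_eq' ]
    simp only [Finset.mem_univ, if_true]
    by_cases hq : q = none
    · simp only [hq, if_true]; rw [hv, add_zero]
    · simp [hq]
  rw [hsum]
  apply W.sum_mem
  intro p _
  apply W.smul_mem
  by_cases hp : p = none
  · rw [if_pos hp]; exact W.zero_mem
  · rw [if_neg hp]; exact hpair p none hp

end Cfsg.Agent.Lib.Helper92
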