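import Cfsg.Agent.Lib.Helper92.M24Search
import Cfsg.Prelude.Def_SporadicCombinatorics

/-!
# Families of sets (sextets, trios) coded by lists of masks
-/

set_option autoImplicit false

namespace Cfsg.Agent.Lib.Helper92

open Cfsg
open Cfsg.Agent.Lib.Helper27
open scoped Pointwise

/-- the family of sets coded by a list of masks. -/
def fam (ms : List ℕ) : Finset (Finset GolayPt) := (ms.map unmask).toFinset

theorem mem_fam {ms : List ℕ} {s : Finset GolayPt} : s ∈ fam ms ↔ ∃ m ∈ ms, unmask m = s := by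
  simp [fam]

theorem card_fam {ms : List ℕ} (hnd : ms.Nodup) (hlt : ∀ m ∈ ms, m < 2 ^ 24) :
    (fam ms).card = ms.length := by
  unfold fam
  rw [List.toFinset_card_of_nodup, List.length_map]
  exact (List.nodup_map_iff_inj_on hnd).2 (fun a ha b hb h => unmask_injOn (hlt a ha) (hlt b hb) h)

/-- Boolean test: the code permutes the masks of the list. -/
def famFix (ms : List ℕ) (c : ℕ) : Bool :=
  allList (fun m => anyList (fun m' => Nat.beq (permMask c m) m') ms) ms

theorem smul_fam_eq {ms : List ℕ} {c : ℕ} (hv : validCode c = true) (hlt : ∀ m ∈ ms, m < 2 ^ 24)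
    (h : famFix ms c = true) : permOf c • fam ms = fam ms := by
  unfold famFix at h
  rw [allList_iff] at h
  apply Finset.eq_of_subset_of_card_le
  · intro x hx
    obtain ⟨y, hy, rfl⟩ := Finset.mem_smul_finset.1 hx
    obtain ⟨m, hm, rfl⟩ := mem_fam.1 hy
    obtain ⟨m', hm', he⟩ := (anyList_iff _ _).1 (h m hm)
    rw [Nat.beq_eq] at he
    rw [smul_unmask_permOf hv (hlt m hm), he]
    exact mem_fam.2 ⟨m', hm', rfl⟩
  · rw [Finset.card_smul_finset]

theorem famFix_of_smul_eq {ms : List ℕ} {c : ℕ} (hv : validCode c = true)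
    (hlt : ∀ m ∈ ms, m < 2 ^ 24) (h : permOf c • fam ms = fam ms) : famFix ms c = true := by
  unfold famFix
  rw [allList_iff]
  intro m hm
  rw [anyList_iff]
  have h1 : permOf c • unmask m ∈ fam ms := by
    rw [← h]; exact Finset.smul_mem_smul_finset (mem_fam.2 ⟨m, hm, rfl⟩)
  obtain ⟨m', hm', he⟩ := mem_fam.1 h1
  rw [smul_unmask_permOf hv (hlt m hm)] at he
  exact ⟨m', hm', by rw [Nat.beq_eq]; exact (unmask_injOn (hlt m' hm') (permMask_lt hv (hlt m hm)) he).symm⟩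

theorem fam_mem_sextets {ms : List ℕ} (h6 : ms.length = 6) (hnd : ms.Nodup)
    (hlt : ∀ m ∈ ms, m < 2 ^ 24) (h4 : ∀ m ∈ ms, pc m = 4)
    (ho : ∀ m ∈ ms, ∀ m' ∈ ms, m ≠ m' → isCode (m ||| m') = true ∧ pc (m ||| m') = 8) :
    fam ms ∈ sextets := by
  refine ⟨by rw [card_fam hnd hlt, h6], ?_, ?_⟩
  · intro t ht
    obtain ⟨m, hm, rfl⟩ := mem_fam.1 ht
    rw [card_unmask, h4 m hm]
  · intro t ht u hu htu
    obtain ⟨m, hm, rfl⟩ := mem_fam.1 ht
    obtain ⟨m', hm', rfl⟩ := mem_fam.1 hu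
    have hne : m ≠ m' := fun e => htu (by rw [e])
    rw [← unmask_or]
    exact unmask_mem_octads (ho m hm m' hm' hne).1 (ho m hm m' hm' hne).2

theorem fam_mem_trios {ms : List ℕ} (h3 : ms.length = 3) (hnd : ms.Nodup)
    (ho : ∀ m ∈ ms, isCode m = true ∧ pc m = 8)
    (hd : ∀ m ∈ ms, ∀ m' ∈ ms, m ≠ m' → m &&& m' = 0) : fam ms ∈ trios := by
  have hlt : ∀ m ∈ ms, m < 2 ^ 24 := fun m hm => isCode_lt (ho m hm).1
  refine ⟨by rw [card_fam hnd hlt, h3], ?_, ?_⟩
  · intro t ht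
    obtain ⟨m, hm, rfl⟩ := mem_fam.1 ht
    exact unmask_mem_octads (ho m hm).1 (ho m hm).2
  · intro t ht u hu htu
    obtain ⟨m, hm, rfl⟩ := mem_fam.1 ht
    obtain ⟨m', hm', rfl⟩ := mem_fam.1 hu
    have hne : m ≠ m' := fun e => htu (by rw [e])
    rw [disjoint_iff_mask, mask_unmask (hlt m hm), mask_unmask (hlt m' hm')]
    exact hd m hm m' hm' hne

theorem smul_mem_sextets {g : Equiv.Perm GolayPt} (hg : g ∈ M24) {S : Finset (Finset GolayPt)}
    (hS : S ∈ sextets) : g • S ∈ sextets := by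
  obtain ⟨h6, h4, ho⟩ := hS
  refine ⟨by rw [Finset.card_smul_finset, h6], ?_, ?_⟩
  · intro t ht
    obtain ⟨y, hy, rfl⟩ := Finset.mem_smul_finset.1 ht
    rw [Finset.card_smul_finset, h4 y hy]
  · intro t ht u hu htu
    obtain ⟨y, hy, rfl⟩ := Finset.mem_smul_finset.1 ht
    obtain ⟨y', hy', rfl⟩ := Finset.mem_smul_finset.1 hu
    rw [← Finset.smul_finset_union]
    exact smul_mem_octads hg (ho y hy y' hy' (fun e => htu (by rw [e])))

theorem smul_mem_trios {g : Equiv.Perm GolayPt} (hg : g ∈ M24) {S : Finset (Finset GolayPt)}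
    (hS : S ∈ trios) : g • S ∈ trios := by
  obtain ⟨h3, ho, hd⟩ := hS
  refine ⟨by rw [Finset.card_smul_finset, h3], ?_, ?_⟩
  · intro t ht
    obtain ⟨y, hy, rfl⟩ := Finset.mem_smul_finset.1 ht
    exact smul_mem_octads hg (ho y hy)
  · intro t ht u hu htu
    obtain ⟨y, hy, rfl⟩ := Finset.mem_smul_finset.1 ht
    obtain ⟨y', hy', rfl⟩ := Finset.mem_smul_finset.1 hu
    have h1 := hd y hy y' hy' (fun e => htu (by rw [e]))
    rw [Finset.disjoint_iff_inter_eq_empty] at h1 ⊢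
    rw [← Finset.smul_finset_inter, h1, Finset.smul_finset_empty]

end Cfsg.Agent.Lib.Helper92
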