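import Cfsg.Agent.Lib.Helper92.M24Invol
import Cfsg.Agent.Lib.Helper92.M24Fam
import Cfsg.Agent.Lib.Helper27.Flag

/-!
# The centraliser of the standard fixed-point-free involution `t0` of `M24`

order `7680`, transitive on the 24 points, fixes the sextet `sextT`.
-/

set_option autoImplicit false

namespace Cfsg.Agent.Lib.Helper92

open Cfsg
open Cfsg.Agent.Lib.Helper27
open scoped Pointwise

/-- commuting with the coded permutation `s`. -/
def QC (s : ℕ) (g : Equiv.Perm GolayPt) : Prop := g * permOf s = permOf s * g

theorem interB_iff_QC {s : ℕ} (hs : checkM24 s = true) (c : ℕ) (hc : validCode c = true)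
    (hcM : permOf c ∈ M24) : interB s s c = true ↔ QC s (permOf c) := interB_iff hs hs hc hcM

theorem smul_fix_of_comm {g z : Equiv.Perm GolayPt} (h : g * z = z * g) :
    g • Finset.univ.filter (fun p => z p = p) = Finset.univ.filter (fun p => z p = p) := by
  rw [← fix_conj, h, mul_inv_cancel_right]

/-- the centraliser in `M24` of a coded permutation. -/
def centM (s : ℕ) : Subgroup (Equiv.Perm GolayPt) := M24 ⊓ Subgroup.centralizer {permOf s}

theorem mem_centM {s : ℕ} {g : Equiv.Perm GolayPt} : g ∈ centM s ↔ g ∈ M24 ∧ QC s g := by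
  rw [centM, Subgroup.mem_inf, Subgroup.mem_centralizer_singleton_iff]
  rfl

theorem card_centM (s : ℕ) :
    Nat.card {g : Equiv.Perm GolayPt // g ∈ M24 ∧ g * permOf s = permOf s * g} =
      Nat.card (centM s) :=
  Nat.card_congr (Equiv.subtypeEquivRight (fun _ => mem_centM.symm))

/-- elements of the centraliser of `t0` mapping the point of index 23 to the 24 points. -/
def UT : List ℕ := [28687592118589861578386764403940951,
  55034500752070183186318139212446114,
  96562735572073420665645570763118753,
  125434094192891588965030639464368356,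
  195511456963912913169131120175070531,
  233907195165355666328935011240259254,
  256411634727036006210822095394820396,
  290958204770498208426412675598437650,
  352004290373755571213688536541769939,
  389065199831964961803528121656385108,
  417232878966458703557400473831086479,
  466606602913891329453761079386057205,
  526345940920683744960149211571706022,
  556292108363050841304406015404417646,
  605717775295474987727186777075270189,
  649588153444003629564253971153000842,
  676587446825850132157015319395154353,
  722553289678095644103185836760531696,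
  774369870302434123687507076380734919,
  795966974282957575929563349274083880,
  850369878253150948050207611355050185,
  888575077582767598931987232517214507,
  943949150172323503100778015044715045,
  984818244535754528103549039458486304]

theorem UT_check : ∀ u ∈ UT, checkM24 u = true ∧ interB t0c t0c u = true := by decide +kernel

theorem UT_mem {u : ℕ} (hu : u ∈ UT) : permOf u ∈ centM t0c := by
  obtain ⟨h1, h2⟩ := UT_check u hu
  exact mem_centM.2 ⟨permOf_mem_M24 h1,
    (interB_iff_QC t0c_check u (valid_of_check h1) (permOf_mem_M24 h1)).1 h2⟩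

theorem exists_UT (q : GolayPt) : ∃ u ∈ UT, permOf u (pt 23) = q := by
  have h : imgMask UT 23 = 16777215 := by decide +kernel
  have h1 : (imgMask UT 23).testBit (idx q) = true := by
    rw [h]
    have : ∀ q : GolayPt, (16777215 : ℕ).testBit (idx q) = true := by decide +kernel
    exact this q
  obtain ⟨u, hu, he⟩ := (testBit_imgMask UT 23 _).1 h1
  exact ⟨u, hu, by rw [permOf_pt (valid_of_check (UT_check u hu).1) (by norm_num), he, pt_idx]⟩

/-- the stabiliser of the point of index 23 in the centraliser. -/
def QT23 (g : Equiv.Perm GolayPt) : Prop := QC t0c g ∧ g (pt 23) = pt 23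

def lvT23 : List (ℕ × List ℕ × (ℕ → ℕ → Bool)) :=
  stdLv (keepV 23 23) (keepI t0c 0 23) keepT (keepI t0c 2 1) keepT (keepI t0c 4 3) keepT

theorem chainT23 : SChain QT23 [] lvT23 :=
  stdChain ((keepV_ok stp0 (by norm_num)).mono (fun _ h => h.2))
    ((keepI_ok stp1 t0c_valid t0c_valid (by norm_num) (by simp [L1]) (by decide +kernel)).mono
      (fun _ h => h.1))
    (keepT_ok _ _ _ _)
    ((keepI_ok stp3 t0c_valid t0c_valid (by norm_num) (by simp [L3]) (by decide +kernel)).mono
      (fun _ h => h.1))
    (keepT_ok _ _ _ _)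
    ((keepI_ok stp5 t0c_valid t0c_valid (by norm_num) (by simp [L5]) (by decide +kernel)).mono
      (fun _ h => h.1))
    (keepT_ok _ _ _ _)

/-- Boolean test for `QT23`. -/
def qT23 (c : ℕ) : Bool := band (interB t0c t0c c) (Nat.beq (ent c 23) 23)

theorem qT23_iff (c : ℕ) (hc : validCode c = true) (hcM : permOf c ∈ M24) :
    qT23 c = true ↔ QT23 (permOf c) := by
  unfold qT23 QT23
  rw [band_eq, Bool.and_eq_true, interB_iff_QC t0c_check c hc hcM, Nat.beq_eq,
    permOf_pt hc (by norm_num)]
  constructor
  · rintro ⟨h1, h2⟩; exact ⟨h1, by rw [h2]⟩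
  · rintro ⟨h1, h2⟩
    exact ⟨h1, pt_injOn (ent_lt_of_valid hc 23 (by norm_num)) (by norm_num) h2⟩

theorem count_T23 : countP qT23 lvT23 idCode = 320 := by decide +kernel

theorem card_centM_t0 : Nat.card (centM t0c) = 7680 := by
  rw [card_step (centM t0c) (pt 23) Set.univ
    (fun y _ => by
      obtain ⟨u, hu, he⟩ := exists_UT y
      exact ⟨permOf u, UT_mem hu, he⟩) (fun _ _ => Set.mem_univ _)]
  have h1 : Nat.card ↥(centM t0c ⊓ MulAction.stabilizer (Equiv.Perm GolayPt) (pt 23)) = 320 := by
    rw [← count_T23, ← M24_count chainT23 qT23_iff]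
    apply Nat.card_congr
    apply Equiv.subtypeEquivRight
    intro g
    rw [Subgroup.mem_inf, mem_centM, MulAction.mem_stabilizer_iff, and_assoc]
    rfl
  rw [h1, Set.ncard_univ, Nat.card_eq_fintype_card]
  decide +kernel

theorem card_cent_t0 :
    Nat.card {g : Equiv.Perm GolayPt // g ∈ M24 ∧ g * permOf t0c = permOf t0c * g} = 7680 := by
  rw [card_centM, card_centM_t0]

/-- factorisation of the centraliser. -/
theorem cent_t0_factor {g : Equiv.Perm GolayPt} (hg : g ∈ centM t0c) :
    ∃ u ∈ UT, ∃ h ∈ M24, QT23 h ∧ g = permOf u * h := by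
  obtain ⟨u, hu, he⟩ := exists_UT (g (pt 23))
  have hm : (permOf u)⁻¹ * g ∈ centM t0c := (centM t0c).mul_mem ((centM t0c).inv_mem (UT_mem hu)) hg
  refine ⟨u, hu, (permOf u)⁻¹ * g, (mem_centM.1 hm).1, ⟨(mem_centM.1 hm).2, ?_⟩, by simp⟩
  rw [Equiv.Perm.mul_apply, Equiv.Perm.inv_eq_iff_eq, he]

/-- the masks of the tetrads of the sextet fixed by the centraliser of `t0`. -/
def sextT : List ℕ := [196632, 266432, 1049094, 2623744, 4218912, 8422401]

theorem sextT_lt : ∀ m ∈ sextT, m < 2 ^ 24 := by decide +kernel

theorem sextT_mem : fam sextT ∈ sextets :=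
  fam_mem_sextets (by decide +kernel) (by decide +kernel) sextT_lt (by decide +kernel)
    (by decide +kernel)

theorem sextT_UT : ∀ u ∈ UT, famFix sextT u = true := by decide +kernel

theorem sextT_T23 : allP (fun c => bor (bnot (qT23 c)) (famFix sextT c)) lvT23 idCode = true := by
  decide +kernel

/-- the centraliser of `t0` fixes the sextet. -/
theorem cent_t0_sextet {g : Equiv.Perm GolayPt} (hg : g ∈ centM t0c) :
    g • fam sextT = fam sextT := by
  obtain ⟨u, hu, h, hh, hQ, rfl⟩ := cent_t0_factor hg
  obtain ⟨c, hv, rfl, hf⟩ := M24_forall chainT23 sextT_T23 h hh hQ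
  rw [bor_eq, Bool.or_eq_true, bnot_eq_true] at hf
  rcases hf with hf | hf
  · rw [(qT23_iff c hv hh).2 hQ] at hf
    exact absurd hf (by simp)
  · rw [mul_smul, smul_fam_eq hv sextT_lt hf,
      smul_fam_eq (valid_of_check (UT_check u hu).1) sextT_lt (sextT_UT u hu)]

theorem t0_mem_centM : permOf t0c ∈ centM t0c := mem_centM.2 ⟨permOf_mem_M24 t0c_check, rfl⟩

end Cfsg.Agent.Lib.Helper92
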