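import Cfsg.Agent.Lib.Helper92.M24Invol

/-!
# The two classes of elements of order 3 of `M24`

`xAc` is the code of an element of order 3 with exactly 6 fixed points, `xBc` the code of a
fixed-point-free element of order 3; `order3_class`: every element of order 3 of `M24` is conjugate
to one of them.  Both are adapted to the standard base:
`xA = (23 0 1)(2 3 5)(4)…`, `xB = (23 0 1)(2 3 4)(5 11 22)…`.
-/

set_option autoImplicit false

namespace Cfsg.Agent.Lib.Helper92

open Cfsg
open Cfsg.Agent.Lib.Helper27
open scoped Pointwise

/-- code of the standard element of order 3 with 6 fixed points. -/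
def xAc : ℕ := 15141435945608064366671252158582497

/-- code of the standard fixed-point-free element of order 3. -/
def xBc : ℕ := 6791464878426358018044804127133409

theorem xAc_check : checkM24 xAc = true := by decide +kernel
theorem xBc_check : checkM24 xBc = true := by decide +kernel
theorem xAc_valid : validCode xAc = true := valid_of_check xAc_check
theorem xBc_valid : validCode xBc = true := valid_of_check xBc_check

theorem cube_of_mulU {c : ℕ} (hv : validCode c = true) :
    mulU (mulU c c) c = idCode ↔ permOf c * permOf c * permOf c = 1 := by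
  rw [mulU_eq_idCode_iff (validCode_mulU hv hv) hv, permOf_mulU hv hv]

theorem xA_cube : permOf xAc * permOf xAc * permOf xAc = 1 :=
  (cube_of_mulU xAc_valid).1 (by decide +kernel)

theorem xB_cube : permOf xBc * permOf xBc * permOf xBc = 1 :=
  (cube_of_mulU xBc_valid).1 (by decide +kernel)

/-- conjugators for the elements with fixed points met in the search. -/
def conj3A : List ℕ := [296091025388714933211443798431793526,
  509277896460681788016686523550293193,
  845055412744929705353774148803238408,
  335193615861942934402131237789087376,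
  984818244535754528103549039458486304,
  964676018021386305638893569451511840,
  230580743738315804938137193208527970,
  499858334666581967216904609025638601,
  52438279830692533326155595487712279,
  628497619955629787089444317062093421,
  980622063513008320856167737925586976,
  133013492105342343277451160281536581]

/-- conjugators for the fixed-point-free elements met in the search. -/
def conj3B : List ℕ := [706943802349739309744898257965468084,
  304439129128367067870161124520999602,
  679650914159325550318440079885259374,
  765202854794853656492419033625334005,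
  392966919553655781264855338714270922,
  549861807133263777948053229161256593,
  646462654341188943656777879625870728,
  233761865490775122076350093151452875,
  470499991396117376984761529141366966,
  418936346416527848761392357444932902,
  969840659270980527014755444184466464,
  769256376250640943661266957791442165,
  595398269087964519249124716566315539,
  971537734055768354221554127659586592,
  876711636894134442006253395983959623,
  921941546690431641957680155747966309,
  542759150489543786227642370126170769,
  805702452778033713269526374749602256,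
  984818244535754528103549039458486304,
  724710820069875648021303291629786548,
  818495809101041203728063535234337232,
  186938796268672194376340145003926626,
  432772549673104282942765616904460582,
  563451057169698702996411255965203089,
  854427767897189982281416898712907309,
  813535948024281740027899771064750544,
  269656751401248901246999826126029129,
  776828108197392220578258854793811189,
  332840139660128200889591354546161132,
  437920701766669672910322709519847718,
  590832119868006030815535286539593235,
  333176033712901515775793362172449260,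
  477960907565361930516767435060707510,
  588769473385020848815145583734301203,
  759524273966659807625206665549462773,
  187750759171208684765474159826606178,
  355246510715699463837332891400478188,
  540578533922552798399638098603953809,
  649443273627149673471172155345770888,
  175994885589860200515048969921140834,
  567683176110572618545456351457857169,
  108592830293989874848165561609432195,
  174331412431662738061844474568562786,
  499320891130964434751210463325472015,
  974978135221564100564917299236776992,
  933372408944418957827987894348878181,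
  933641149709645421293483823535885669,
  357843350077894585686809283338013164]

theorem conj3A_check : ∀ k ∈ conj3A, checkM24 k = true := by decide +kernel
theorem conj3B_check : ∀ k ∈ conj3B, checkM24 k = true := by decide +kernel

/-- the property defining the search. -/
def Q3 (g : Equiv.Perm GolayPt) : Prop :=
  g (pt 23) = pt 0 ∧ g (pt 0) = pt 1 ∧ g (pt 1) = pt 23 ∧ g (pt 2) = pt 3 ∧ g * g * g = 1

theorem chain3 : SChain Q3 []
    (stdLv (keepV 23 0) (keepV 0 1) (keepV 1 23) (keepV 2 3) keepT keepT keepT) :=
  stdChain ((keepV_ok stp0 (by norm_num)).mono (fun _ h => h.1))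
    ((keepV_ok stp1 (by norm_num)).mono (fun _ h => h.2.1))
    ((keepV_ok stp2 (by norm_num)).mono (fun _ h => h.2.2.1))
    ((keepV_ok stp3 (by norm_num)).mono (fun _ h => h.2.2.2.1))
    (keepT_ok _ _ _ _) (keepT_ok _ _ _ _) (keepT_ok _ _ _ _)

/-- the test on the leaves. -/
def test3 (c : ℕ) : Bool :=
  bor (bnot (Nat.beq (mulU (mulU c c) c) idCode))
    (bor (anyList (fun k => Nat.beq (mulU k c) (mulU xAc k)) conj3A)
      (anyList (fun k => Nat.beq (mulU k c) (mulU xBc k)) conj3B))

theorem test3_all : allP test3
    (stdLv (keepV 23 0) (keepV 0 1) (keepV 1 23) (keepV 2 3) keepT keepT keepT) idCode = true := by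
  decide +kernel

/-- a normalised element of order 3 is conjugate to one of the two standard ones. -/
theorem class_of_Q3 {g : Equiv.Perm GolayPt} (hg : g ∈ M24) (hQ : Q3 g) :
    (∃ k ∈ M24, k * g * k⁻¹ = permOf xAc) ∨ (∃ k ∈ M24, k * g * k⁻¹ = permOf xBc) := by
  obtain ⟨c, hv, rfl, hf⟩ := M24_forall chain3 test3_all g hg hQ
  unfold test3 at hf
  rw [bor_eq, bor_eq, Bool.or_eq_true, Bool.or_eq_true, bnot_eq_true, anyList_iff, anyList_iff] at hf
  rcases hf with hf | ⟨k, hk, hf⟩ | ⟨k, hk, hf⟩
  · exfalso
    have := (cube_of_mulU hv).2 hQ.2.2.2.2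
    rw [this] at hf
    revert hf
    decide +kernel
  · exact Or.inl ⟨permOf k, permOf_mem_M24 (conj3A_check k hk),
      conj_of_mulU (valid_of_check (conj3A_check k hk)) hv xAc_valid hf⟩
  · exact Or.inr ⟨permOf k, permOf_mem_M24 (conj3B_check k hk),
      conj_of_mulU (valid_of_check (conj3B_check k hk)) hv xBc_valid hf⟩

/-- an element of `M24` fixing all the points except possibly three is the identity. -/
theorem eq_one_of_fix_21 {g : Equiv.Perm GolayPt} (hg : g ∈ M24) {x y z : GolayPt} (hxy : x ≠ y)
    (hxz : x ≠ z) (hyz : y ≠ z) (h : ∀ p, p ≠ x → p ≠ y → p ≠ z → g p = p) : g = 1 := by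
  obtain ⟨k, hk, k1, k2, k3⟩ := Cfsg.Agent.Lib.Helper27.std3 hxy hxz hyz
  have h1 : k * g * k⁻¹ = 1 := by
    apply checkRigid_sound [(10558, 10558), (5279, 5279), (8391797, 8391797)] 8388604 (by decide +kernel) _
      (M24.mul_mem (M24.mul_mem hk hg) (M24.inv_mem hk))
    intro p hp
    have hp' : ∀ p : GolayPt, p ∈ unmask 8388604 → p ≠ pt 23 ∧ p ≠ pt 0 ∧ p ≠ pt 1 := by
      decide +kernel
    rw [Equiv.Perm.mul_apply, Equiv.Perm.mul_apply, h (k⁻¹ p)]
    · simp
    · intro e
      apply (hp' p hp).1
      rw [← k1, ← e]; simp
    · intro e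
      apply (hp' p hp).2.1
      rw [← k2, ← e]; simp
    · intro e
      apply (hp' p hp).2.2
      rw [← k3, ← e]; simp
  have := congrArg (fun z => k⁻¹ * z * k) h1
  simpa [mul_assoc] using this

/-- every element of order 3 of `M24` can be normalised. -/
theorem exists_norm3 {g : Equiv.Perm GolayPt} (hg : g ∈ M24) (h3 : g * g * g = 1) (h1 : g ≠ 1) :
    ∃ k ∈ M24, Q3 (k * g * k⁻¹) := by
  have hggg : ∀ p, g (g (g p)) = p := fun p => by
    have := congrArg (fun f : Equiv.Perm GolayPt => f p) h3
    simpa using this
  have hmv : ∀ p, g p ≠ p → g (g p) ≠ p := by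
    intro p hp e
    apply hp
    have := hggg p
    rw [e] at this
    exact this
  obtain ⟨a, ha⟩ : ∃ x, g x ≠ x := by
    by_contra hcon
    push Not at hcon
    exact h1 (Equiv.ext hcon)
  have n01 : a ≠ g a := fun e => ha e.symm
  have n02 : a ≠ g (g a) := fun e => hmv a ha e.symm
  have n12 : g a ≠ g (g a) := fun e => n01 (g.injective e)
  obtain ⟨b, hb0, hb1, hb2, hb⟩ : ∃ x, x ≠ a ∧ x ≠ g a ∧ x ≠ g (g a) ∧ g x ≠ x := by
    by_contra hcon
    push Not at hcon
    exact h1 (eq_one_of_fix_21 hg n01 n02 n12 hcon)
  have m0 : a ≠ g b := fun e => hb2 (g.injective (by rw [hggg, e]))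
  have m1 : g a ≠ g b := fun e => hb0 (g.injective e).symm
  have m2 : g (g a) ≠ g b := fun e => hb1 (g.injective e).symm
  obtain ⟨k, hk, k1, k2, k3, k4, k5⟩ := Cfsg.Agent.Lib.Helper27.std5 n01 n02 (fun e => hb0 e.symm) m0
    n12 (fun e => hb1 e.symm) m1 (fun e => hb2 e.symm) m2 (fun e => hb e.symm)
  have i1 : k⁻¹ (pt 23) = a := by rw [← k1]; simp
  have i2 : k⁻¹ (pt 0) = g a := by rw [← k2]; simp
  have i3 : k⁻¹ (pt 1) = g (g a) := by rw [← k3]; simp
  have i4 : k⁻¹ (pt 2) = b := by rw [← k4]; simp
  refine ⟨k, hk, ?_, ?_, ?_, ?_, ?_⟩
  · rw [Equiv.Perm.mul_apply, Equiv.Perm.mul_apply, i1, k2]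
  · rw [Equiv.Perm.mul_apply, Equiv.Perm.mul_apply, i2, k3]
  · rw [Equiv.Perm.mul_apply, Equiv.Perm.mul_apply, i3, hggg, k1]
  · rw [Equiv.Perm.mul_apply, Equiv.Perm.mul_apply, i4, k5]
  · calc k * g * k⁻¹ * (k * g * k⁻¹) * (k * g * k⁻¹) = k * (g * g * g) * k⁻¹ := by group
      _ = 1 := by rw [h3]; group

/-- **every element of order 3 of `M24` is conjugate to `xA` or to `xB`.** -/
theorem order3_class {g : Equiv.Perm GolayPt} (hg : g ∈ M24) (h3 : orderOf g = 3) :
    (∃ k ∈ M24, k * g * k⁻¹ = permOf xAc) ∨ (∃ k ∈ M24, k * g * k⁻¹ = permOf xBc) := by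
  have hcube : g * g * g = 1 := by
    have := pow_orderOf_eq_one g
    rw [h3] at this
    rw [← this]; simp only [pow_succ, pow_zero, one_mul]
  have hne : g ≠ 1 := by
    rintro rfl
    rw [orderOf_one] at h3
    exact absurd h3 (by norm_num)
  obtain ⟨k, hk, hQ⟩ := exists_norm3 hg hcube hne
  rcases class_of_Q3 (M24.mul_mem (M24.mul_mem hk hg) (M24.inv_mem hk)) hQ with
    ⟨m, hm, he⟩ | ⟨m, hm, he⟩
  · exact Or.inl ⟨m * k, M24.mul_mem hm hk, by rw [← he]; group⟩
  · exact Or.inr ⟨m * k, M24.mul_mem hm hk, by rw [← he]; group⟩

theorem xA_ne_one : permOf xAc ≠ 1 := by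
  rw [Ne, permOf_eq_one_iff xAc_valid]; decide +kernel

theorem xB_ne_one : permOf xBc ≠ 1 := by
  rw [Ne, permOf_eq_one_iff xBc_valid]; decide +kernel

theorem orderOf_eq_three {g : Equiv.Perm GolayPt} (h3 : g * g * g = 1) (h1 : g ≠ 1) :
    orderOf g = 3 :=
  orderOf_eq_prime (by rw [← h3]; simp only [pow_succ, pow_zero, one_mul]) h1

theorem orderOf_xA : orderOf (permOf xAc) = 3 := orderOf_eq_three xA_cube xA_ne_one

theorem orderOf_xB : orderOf (permOf xBc) = 3 := orderOf_eq_three xB_cube xB_ne_one

/-- the fixed points of `xA`. -/
theorem fix_xA : Finset.univ.filter (fun p => permOf xAc p = p) = unmask 2507792 := by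
  rw [← unmask_fixMask xAc_valid]
  have : fixMask xAc = 2507792 := by decide +kernel
  rw [this]

theorem card_fix_xA : (Finset.univ.filter (fun p => permOf xAc p = p)).card = 6 := by
  rw [fix_xA, card_unmask]; decide +kernel

/-- `xB` has no fixed point. -/
theorem fix_xB : ∀ p, permOf xBc p ≠ p := by
  intro p hp
  have h1 : p ∈ Finset.univ.filter (fun p => permOf xBc p = p) := by simp [hp]
  rw [← unmask_fixMask xBc_valid] at h1
  have : fixMask xBc = 0 := by decide +kernel
  rw [this] at h1
  simp at h1

end Cfsg.Agent.Lib.Helper92
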