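import Cfsg.Prelude.Def_AxialAlgebras

set_option autoImplicit false

namespace Cfsg.Agent.Lib.Helper92

open Cfsg.Axial

variable {V : Type*} [AddCommGroup V] [Module ℝ V] {mul : V →ₗ[ℝ] V →ₗ[ℝ] V}
  {B : LinearMap.BilinForm ℝ V}

/-- abbreviation for the Majorana axis condition -/
abbrev MAxis (mul : V →ₗ[ℝ] V →ₗ[ℝ] V) (a : V) : Prop :=
  IsPrimitiveAxis mul (monsterLaw (1 / 4) (1 / 32)) majoranaSpectrum a

theorem mem_eigen {a v : V} {c : ℝ} : v ∈ eigen mul a c ↔ mul a v = c • v :=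
  Module.End.mem_eigenspace_iff

theorem mem_eigenSum_one {a v : V} {c : ℝ} : v ∈ eigenSum mul a {c} ↔ mul a v = c • v := by
  unfold eigenSum
  rw [iSup_singleton, mem_eigen]

theorem mem_eigenSum_two {a v : V} {c d : ℝ} :
    v ∈ eigenSum mul a {c, d} ↔ ∃ x y, mul a x = c • x ∧ mul a y = d • y ∧ v = x + y := by
  unfold eigenSum
  rw [iSup_insert, iSup_singleton, Submodule.mem_sup]
  constructor
  · rintro ⟨x, hx, y, hy, rfl⟩
    exact ⟨x, y, mem_eigen.mp hx, mem_eigen.mp hy, rfl⟩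
  · rintro ⟨x, y, hx, hy, rfl⟩
    exact ⟨x, mem_eigen.mpr hx, y, mem_eigen.mpr hy, rfl⟩

theorem mem_eigenSum_three {a v : V} {c d e : ℝ} :
    v ∈ eigenSum mul a {c, d, e} ↔
      ∃ x y z, mul a x = c • x ∧ mul a y = d • y ∧ mul a z = e • z ∧ v = x + y + z := by
  unfold eigenSum
  rw [iSup_insert, iSup_insert, iSup_singleton, Submodule.mem_sup]
  constructor
  · rintro ⟨x, hx, w, hw, rfl⟩
    obtain ⟨y, hy, z, hz, rfl⟩ := Submodule.mem_sup.mp hw
    exact ⟨x, y, z, mem_eigen.mp hx, mem_eigen.mp hy, mem_eigen.mp hz, by abel⟩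
  · rintro ⟨x, y, z, hx, hy, hz, rfl⟩
    exact ⟨x, mem_eigen.mpr hx, y + z,
      Submodule.mem_sup.mpr ⟨y, mem_eigen.mpr hy, z, mem_eigen.mpr hz, rfl⟩, by abel⟩

theorem mem_eigenSum_four {a v : V} {c d e f : ℝ} :
    v ∈ eigenSum mul a {c, d, e, f} ↔
      ∃ x y z w, mul a x = c • x ∧ mul a y = d • y ∧ mul a z = e • z ∧ mul a w = f • w ∧
        v = x + y + z + w := by
  unfold eigenSum
  rw [iSup_insert, iSup_insert, iSup_insert, iSup_singleton, Submodule.mem_sup]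
  constructor
  · rintro ⟨x, hx, w, hw, rfl⟩
    obtain ⟨y, hy, w', hw', rfl⟩ := Submodule.mem_sup.mp hw
    obtain ⟨z, hz, t, ht, rfl⟩ := Submodule.mem_sup.mp hw'
    exact ⟨x, y, z, t, mem_eigen.mp hx, mem_eigen.mp hy, mem_eigen.mp hz, mem_eigen.mp ht, by abel⟩
  · rintro ⟨x, y, z, t, hx, hy, hz, ht, rfl⟩
    exact ⟨x, mem_eigen.mpr hx, y + (z + t),
      Submodule.mem_sup.mpr ⟨y, mem_eigen.mpr hy, z + t,
        Submodule.mem_sup.mpr ⟨z, mem_eigen.mpr hz, t, mem_eigen.mpr ht, rfl⟩, rfl⟩, by abel⟩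

section Axis

variable {a : V}

theorem MAxis.ne (h : MAxis mul a) : a ≠ 0 := h.1.1

theorem MAxis.idem (h : MAxis mul a) : mul a a = a := h.1.2.1

/-- a 1-eigenvector is a multiple of the axis -/
theorem MAxis.one_eig (h : MAxis mul a) {v : V} (hv : mul a v = v) : ∃ c : ℝ, v = c • a := by
  have : v ∈ eigen mul a 1 := mem_eigen.mpr (by rw [hv, one_smul])
  rw [h.2, Submodule.mem_span_singleton] at this
  obtain ⟨c, hc⟩ := this
  exact ⟨c, hc.symm⟩

theorem MAxis.decomp (h : MAxis mul a) (v : V) :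
    ∃ (c : ℝ) (v0 v4 v32 : V), mul a v0 = 0 ∧ mul a v4 = (1 / 4 : ℝ) • v4 ∧
      mul a v32 = (1 / 32 : ℝ) • v32 ∧ v = c • a + v0 + v4 + v32 := by
  have h1 : v ∈ eigenSum mul a majoranaSpectrum := by rw [h.1.2.2.1]; trivial
  unfold majoranaSpectrum at h1
  obtain ⟨x, y, z, w, hx, hy, hz, hw, rfl⟩ := mem_eigenSum_four.mp h1
  obtain ⟨c, rfl⟩ := h.one_eig (by rw [hx, one_smul])
  exact ⟨c, y, z, w, by rw [hy, zero_smul], hz, hw, rfl⟩

theorem mem_spec_one : (1 : ℝ) ∈ majoranaSpectrum := by unfold majoranaSpectrum; simp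
theorem mem_spec_zero : (0 : ℝ) ∈ majoranaSpectrum := by unfold majoranaSpectrum; simp
theorem mem_spec_four : (1 / 4 : ℝ) ∈ majoranaSpectrum := by unfold majoranaSpectrum; simp
theorem mem_spec_tt : (1 / 32 : ℝ) ∈ majoranaSpectrum := by unfold majoranaSpectrum; simp

theorem law00 : monsterLaw (1 / 4 : ℝ) (1 / 32) 0 0 = {0} := by
  unfold monsterLaw; norm_num
theorem law04 : monsterLaw (1 / 4 : ℝ) (1 / 32) 0 (1 / 4) = {1 / 4} := by
  unfold monsterLaw; norm_num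
theorem law0t : monsterLaw (1 / 4 : ℝ) (1 / 32) 0 (1 / 32) = {1 / 32} := by
  unfold monsterLaw; norm_num
theorem law44 : monsterLaw (1 / 4 : ℝ) (1 / 32) (1 / 4) (1 / 4) = {1, 0} := by
  unfold monsterLaw; norm_num
theorem law4t : monsterLaw (1 / 4 : ℝ) (1 / 32) (1 / 4) (1 / 32) = {1 / 32} := by
  unfold monsterLaw; norm_num
theorem lawtt : monsterLaw (1 / 4 : ℝ) (1 / 32) (1 / 32) (1 / 32) = {1, 0, 1 / 4} := by
  unfold monsterLaw; norm_num

theorem MAxis.f00 (h : MAxis mul a) {u v : V} (hu : mul a u = 0) (hv : mul a v = 0) :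
    mul a (mul u v) = 0 := by
  have := h.1.2.2.2 0 mem_spec_zero 0 mem_spec_zero u (mem_eigen.mpr (by rw [hu, zero_smul]))
    v (mem_eigen.mpr (by rw [hv, zero_smul]))
  rw [law00, mem_eigenSum_one, zero_smul] at this
  exact this

theorem MAxis.f04 (h : MAxis mul a) {u v : V} (hu : mul a u = 0)
    (hv : mul a v = (1 / 4 : ℝ) • v) : mul a (mul u v) = (1 / 4 : ℝ) • mul u v := by
  have := h.1.2.2.2 0 mem_spec_zero (1 / 4) mem_spec_four u
    (mem_eigen.mpr (by rw [hu, zero_smul])) v (mem_eigen.mpr hv)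
  rw [law04, mem_eigenSum_one] at this
  exact this

theorem MAxis.f0t (h : MAxis mul a) {u v : V} (hu : mul a u = 0)
    (hv : mul a v = (1 / 32 : ℝ) • v) : mul a (mul u v) = (1 / 32 : ℝ) • mul u v := by
  have := h.1.2.2.2 0 mem_spec_zero (1 / 32) mem_spec_tt u
    (mem_eigen.mpr (by rw [hu, zero_smul])) v (mem_eigen.mpr hv)
  rw [law0t, mem_eigenSum_one] at this
  exact this

theorem MAxis.f44 (h : MAxis mul a) {u v : V} (hu : mul a u = (1 / 4 : ℝ) • u)
    (hv : mul a v = (1 / 4 : ℝ) • v) : ∃ (c : ℝ) (w : V), mul a w = 0 ∧ mul u v = c • a + w := by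
  have := h.1.2.2.2 (1 / 4) mem_spec_four (1 / 4) mem_spec_four u (mem_eigen.mpr hu)
    v (mem_eigen.mpr hv)
  rw [law44, mem_eigenSum_two] at this
  obtain ⟨x, y, hx, hy, hxy⟩ := this
  obtain ⟨c, rfl⟩ := h.one_eig (by rw [hx, one_smul])
  exact ⟨c, y, by rw [hy, zero_smul], hxy⟩

theorem MAxis.f4t (h : MAxis mul a) {u v : V} (hu : mul a u = (1 / 4 : ℝ) • u)
    (hv : mul a v = (1 / 32 : ℝ) • v) : mul a (mul u v) = (1 / 32 : ℝ) • mul u v := by
  have := h.1.2.2.2 (1 / 4) mem_spec_four (1 / 32) mem_spec_tt u (mem_eigen.mpr hu)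
    v (mem_eigen.mpr hv)
  rw [law4t, mem_eigenSum_one] at this
  exact this

theorem MAxis.ftt (h : MAxis mul a) {u v : V} (hu : mul a u = (1 / 32 : ℝ) • u)
    (hv : mul a v = (1 / 32 : ℝ) • v) :
    ∃ (c : ℝ) (w0 w4 : V), mul a w0 = 0 ∧ mul a w4 = (1 / 4 : ℝ) • w4 ∧
      mul u v = c • a + w0 + w4 := by
  have := h.1.2.2.2 (1 / 32) mem_spec_tt (1 / 32) mem_spec_tt u (mem_eigen.mpr hu)
    v (mem_eigen.mpr hv)
  rw [lawtt, mem_eigenSum_three] at this
  obtain ⟨x, y, z, hx, hy, hz, hxyz⟩ := this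
  obtain ⟨c, rfl⟩ := h.one_eig (by rw [hx, one_smul])
  exact ⟨c, y, z, by rw [hy, zero_smul], hz, hxyz⟩

/-- Independence of the four eigenspaces. -/
theorem MAxis.indep (h : MAxis mul a) {c : ℝ} {v0 v4 v32 : V} (h0 : mul a v0 = 0)
    (h4 : mul a v4 = (1 / 4 : ℝ) • v4) (h32 : mul a v32 = (1 / 32 : ℝ) • v32)
    (hs : c • a + v0 + v4 + v32 = 0) : c = 0 ∧ v0 = 0 ∧ v4 = 0 ∧ v32 = 0 := by
  have e1 : c • a + (1 / 4 : ℝ) • v4 + (1 / 32 : ℝ) • v32 = 0 := by
    have := congrArg (mul a) hs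
    simpa [map_add, map_smul, h.idem, h0, h4, h32] using this
  have e2 : c • a + (1 / 16 : ℝ) • v4 + (1 / 1024 : ℝ) • v32 = 0 := by
    have := congrArg (mul a) e1
    simp only [map_add, map_smul, h.idem, h4, h32, map_zero, smul_smul] at this
    norm_num at this
    exact this
  have e3 : c • a + (1 / 64 : ℝ) • v4 + (1 / 32768 : ℝ) • v32 = 0 := by
    have := congrArg (mul a) e2
    simp only [map_add, map_smul, h.idem, h4, h32, map_zero, smul_smul] at this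
    norm_num at this
    exact this
  -- solve the Vandermonde system
  have hv32 : v32 = 0 := by
    have : (1 : ℝ) • v32 = 0 := by
      linear_combination (norm := module) (8192 / 217 : ℝ) • e1 - (5 * 8192 / 217 : ℝ) • e2 + (4 * 8192 / 217 : ℝ) • e3
    simpa using this
  subst hv32
  have hv4 : v4 = 0 := by
    have : (1 : ℝ) • v4 = 0 := by
      linear_combination (norm := module) (16 / 3 : ℝ) • e1 - (16 / 3 : ℝ) • e2
    simpa using this
  subst hv4
  have hca : c • a = 0 := by simpa using e1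
  have hc : c = 0 := by
    rcases smul_eq_zero.mp hca with h' | h'
    · exact h'
    · exact absurd h' h.ne
  subst hc
  refine ⟨rfl, ?_, rfl, rfl⟩
  simpa using hs

end Axis

end Cfsg.Agent.Lib.Helper92
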