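import Cfsg.Agent.Lib.Helper92.Majorana

set_option autoImplicit false

namespace Cfsg.Agent.Lib.Helper92

open Cfsg.Axial

variable {V : Type*} [AddCommGroup V] [Module ℝ V] {mul : V →ₗ[ℝ] V →ₗ[ℝ] V}
  {B : LinearMap.BilinForm ℝ V}

/-- eigenspaces are transported by automorphisms of the product -/
theorem eigen_map (σ : V ≃ₗ[ℝ] V) (hσ : ∀ u v, σ (mul u v) = mul (σ u) (σ v)) (a : V) (c : ℝ) :
    eigen mul (σ a) c = (eigen mul a c).map (σ : V →ₗ[ℝ] V) := by
  ext v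
  rw [mem_eigen, Submodule.mem_map]
  constructor
  · intro h
    refine ⟨σ.symm v, ?_, by simp⟩
    rw [mem_eigen]
    apply σ.injective
    rw [hσ, map_smul, LinearEquiv.apply_symm_apply, h]
  · rintro ⟨w, hw, rfl⟩
    rw [mem_eigen] at hw
    show mul (σ a) (σ w) = c • σ w
    rw [← hσ, hw, map_smul]

theorem eigenSum_map (σ : V ≃ₗ[ℝ] V) (hσ : ∀ u v, σ (mul u v) = mul (σ u) (σ v)) (a : V)
    (S : Set ℝ) : eigenSum mul (σ a) S = (eigenSum mul a S).map (σ : V →ₗ[ℝ] V) := by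
  unfold eigenSum
  simp only [Submodule.map_iSup, eigen_map σ hσ]

theorem isPrimitiveAxis_map (σ : V ≃ₗ[ℝ] V) (hσ : ∀ u v, σ (mul u v) = mul (σ u) (σ v)) {a : V}
    {law : ℝ → ℝ → Set ℝ} {S : Set ℝ} (h : IsPrimitiveAxis mul law S a) :
    IsPrimitiveAxis mul law S (σ a) := by
  obtain ⟨⟨hne, hid, htop, hfus⟩, hprim⟩ := h
  refine ⟨⟨?_, ?_, ?_, ?_⟩, ?_⟩
  · intro h0
    apply hne
    apply σ.injective
    rw [h0, map_zero]
  · rw [← hσ, hid]
  · rw [eigenSum_map σ hσ, htop, Submodule.map_top]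
    exact LinearMap.range_eq_top.mpr σ.surjective
  · intro c hc d hd u hu v hv
    rw [eigen_map σ hσ] at hu hv
    obtain ⟨u', hu', rfl⟩ := hu
    obtain ⟨v', hv', rfl⟩ := hv
    rw [eigenSum_map σ hσ]
    refine ⟨mul u' v', hfus c hc d hd u' hu' v' hv', ?_⟩
    exact hσ u' v'
  · rw [eigen_map σ hσ, hprim, Submodule.map_span, Set.image_singleton]
    rfl

/-- If the automorphism `σ` commutes with the Majorana involution `μ` of the axis `a`, then `σ a`
is again an axial vector of `μ`. -/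
theorem isMajoranaPair_map {μ σ : V ≃ₗ[ℝ] V} {a : V} (h : IsMajoranaPair mul B μ a)
    (hσ : ∀ u v, σ (mul u v) = mul (σ u) (σ v)) (hc : μ * σ = σ * μ) :
    IsMajoranaPair mul B μ (σ a) := by
  obtain ⟨h1, h2, h3, h4, h5⟩ := h
  have hc' : ∀ w, μ (σ w) = σ (μ w) := fun w => by
    have := congrArg (fun f : V ≃ₗ[ℝ] V => f w) hc
    exact this
  refine ⟨h1, h2, isPrimitiveAxis_map σ hσ h3, ?_, ?_⟩
  · intro v hv
    rw [eigenSum_map σ hσ] at hv
    obtain ⟨w, hw, rfl⟩ := hv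
    have := h4 w hw
    show μ (σ w) = σ w
    rw [hc']
    exact congrArg σ this
  · intro v hv
    rw [eigen_map σ hσ] at hv
    obtain ⟨w, hw, rfl⟩ := hv
    have : μ w = -w := h5 w hw
    show μ (σ w) = -(σ w)
    rw [hc', this, map_neg]

/-- Action of the Majorana involution on a decomposed vector. -/
theorem IsMajoranaPair_apply {μ : V ≃ₗ[ℝ] V} {a : V} (h : IsMajoranaPair mul B μ a) {c : ℝ}
    {v0 v4 v32 : V} (h0 : mul a v0 = 0) (h4 : mul a v4 = (1 / 4 : ℝ) • v4)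
    (h32 : mul a v32 = (1 / 32 : ℝ) • v32) :
    μ (c • a + v0 + v4 + v32) = c • a + v0 + v4 - v32 := by
  obtain ⟨-, -, h3, h5, h6⟩ := h
  have e1 : μ (c • a + v0 + v4) = c • a + v0 + v4 := by
    apply h5
    rw [mem_eigenSum_three]
    refine ⟨c • a, v0, v4, ?_, by rw [h0, zero_smul], h4, rfl⟩
    rw [map_smul, MAxis.idem h3, one_smul]
  have e2 : μ v32 = -v32 := h6 v32 (mem_eigen.mpr h32)
  rw [map_add, e1, e2]
  abel

/-- A vector fixed by the Majorana involution has no `1/32`-component. -/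
theorem decomp_of_fixed {μ : V ≃ₗ[ℝ] V} {a : V} (h : IsMajoranaPair mul B μ a) {v : V}
    (hv : μ v = v) :
    ∃ (c : ℝ) (v0 v4 : V), mul a v0 = 0 ∧ mul a v4 = (1 / 4 : ℝ) • v4 ∧ v = c • a + v0 + v4 := by
  obtain ⟨c, v0, v4, v32, h0, h4, h32, rfl⟩ := MAxis.decomp h.2.2.1 v
  rw [IsMajoranaPair_apply h h0 h4 h32] at hv
  have : (1 : ℝ) • v32 = 0 := by
    linear_combination (norm := module) (-(1 / 2) : ℝ) • hv
  rw [one_smul] at this
  subst this
  exact ⟨c, v0, v4, h0, h4, by simp⟩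

section Form

variable {a : V}

theorem B_axis_zero (hV : IsMajoranaAmbient mul B) (h : MAxis mul a) {v : V} (hv : mul a v = 0) :
    B a v = 0 := by
  have := hV.2.2.2.1 a a v
  rw [hv, h.idem, map_zero] at this
  exact this.symm

theorem B_axis_of_eig (hV : IsMajoranaAmbient mul B) (h : MAxis mul a) {v : V} {c : ℝ}
    (hc : c ≠ 1) (hv : mul a v = c • v) : B a v = 0 := by
  have := hV.2.2.2.1 a a v
  rw [hv, h.idem, map_smul, smul_eq_mul] at this
  have h2 : (c - 1) * B a v = 0 := by linarith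
  rcases mul_eq_zero.mp h2 with h3 | h3
  · exact absurd (by linarith) hc
  · exact h3

end Form

/-- comparing components (no `1/32`-part) -/
theorem MAxis.indep3 {a : V} (h : MAxis mul a) {c c' : ℝ} {v0 v4 v0' v4' : V} (h0 : mul a v0 = 0)
    (h4 : mul a v4 = (1 / 4 : ℝ) • v4) (h0' : mul a v0' = 0)
    (h4' : mul a v4' = (1 / 4 : ℝ) • v4')
    (hs : c • a + v0 + v4 = c' • a + v0' + v4') : c = c' ∧ v0 = v0' ∧ v4 = v4' := by
  have := h.indep (c := c - c') (v0 := v0 - v0') (v4 := v4 - v4') (v32 := 0)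
    (by rw [map_sub, h0, h0', sub_zero]) (by rw [map_sub, h4, h4', smul_sub]) (by simp)
    (by linear_combination (norm := module) hs)
  obtain ⟨e1, e2, e3, -⟩ := this
  exact ⟨sub_eq_zero.mp e1, sub_eq_zero.mp e2, sub_eq_zero.mp e3⟩

end Cfsg.Agent.Lib.Helper92
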