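import Mathlib

/-!
# Sylow counting inside subgroups, maximality of `A.subgroupOf B`, normalisers of cyclic subgroups
-/

set_option autoImplicit false

namespace Cfsg.Agent.Lib.Helper92

/-- the order of `H.subgroupOf K`. -/
theorem card_subgroupOf_eq_inf {G : Type*} [Group G] (H K : Subgroup G) :
    Nat.card (H.subgroupOf K) = Nat.card ↥(H ⊓ K) := by
  rw [← Subgroup.inf_subgroupOf_right]
  exact Nat.card_congr (Subgroup.subgroupOfEquivOfLe inf_le_right).toEquiv

/-- **Sylow counting in a subgroup `Y`**: if `P ≤ Y` has prime order `p` and `p ^ 2 ∤ |Y|`, then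
`|Y| = |N(P) ∩ Y| * n` with `n ≡ 1 (mod p)`. -/
theorem sylow_count {G : Type*} [Group G] [Finite G] {p : ℕ} [Fact p.Prime] (Y P : Subgroup G)
    (hPY : P ≤ Y) (hP : Nat.card P = p) (hp2 : ¬ p ^ 2 ∣ Nat.card Y) :
    ∃ n, n % p = 1 ∧ Nat.card Y = Nat.card ↥(Subgroup.normalizer (P : Set G) ⊓ Y) * n := by
  have hp : p.Prime := Fact.out
  have hne : Nat.card Y ≠ 0 := Nat.card_pos.ne'
  have hfac : (Nat.card Y).factorization p = 1 := by
    have h1 : 1 ≤ (Nat.card Y).factorization p := by
      rw [← hp.pow_dvd_iff_le_factorization hne, pow_one, ← hP]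
      exact Subgroup.card_dvd_of_le hPY
    have h2 : ¬ 2 ≤ (Nat.card Y).factorization p := by
      rw [← hp.pow_dvd_iff_le_factorization hne]; exact hp2
    omega
  have hc : Nat.card (P.subgroupOf Y) = p := by
    rw [← hP]; exact Nat.card_congr (Subgroup.subgroupOfEquivOfLe hPY).toEquiv
  let S : Sylow p Y := Sylow.ofCard (P.subgroupOf Y) (by rw [hfac, pow_one, hc])
  have h1 : Nat.card (Sylow p Y) ≡ 1 [MOD p] := card_sylow_modEq_one p Y
  have h2 : Nat.card (Sylow p Y) = (Subgroup.normalizer ((S : Subgroup Y) : Set Y)).index :=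
    Sylow.card_eq_index_normalizer S
  have h3 := Subgroup.card_mul_index (Subgroup.normalizer ((S : Subgroup Y) : Set Y))
  have h4 : Subgroup.normalizer ((S : Subgroup Y) : Set Y) =
      (Subgroup.normalizer (P : Set G)).subgroupOf Y := (Subgroup.subgroupOf_normalizer_eq hPY).symm
  refine ⟨Nat.card (Sylow p Y), ?_, ?_⟩
  · have := h1
    unfold Nat.ModEq at this
    rw [this, Nat.mod_eq_of_lt hp.one_lt]
  · rw [← h3, h2, h4, card_subgroupOf_eq_inf]

/-- maximality of `A.subgroupOf B` from the interval `[A, B]`. -/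
theorem isCoatom_subgroupOf {G : Type*} [Group G] {A B : Subgroup G} (hAB : A ≤ B) (hne : A ≠ B)
    (h : ∀ X : Subgroup G, A ≤ X → X ≤ B → X = A ∨ X = B) : IsCoatom (A.subgroupOf B) := by
  constructor
  · intro ht
    rw [Subgroup.subgroupOf_eq_top] at ht
    exact hne (le_antisymm hAB ht)
  · intro K hK
    have hinj : Function.Injective B.subtype := B.subtype_injective
    have hX1 : A ≤ K.map B.subtype := by
      intro a ha
      exact ⟨⟨a, hAB ha⟩, hK.le (Subgroup.mem_subgroupOf.2 ha), rfl⟩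
    have hX2 : K.map B.subtype ≤ B := by
      rintro _ ⟨k, _, rfl⟩
      exact k.2
    rcases h _ hX1 hX2 with h1 | h1
    · exfalso
      apply hK.ne'
      ext x
      rw [Subgroup.mem_subgroupOf, ← h1]
      constructor
      · intro hx; exact ⟨x, hx, rfl⟩
      · rintro ⟨y, hy, he⟩
        rw [← hinj he]; exact hy
    · rw [eq_top_iff]
      intro x _
      have : (x : G) ∈ K.map B.subtype := by rw [h1]; exact x.2
      obtain ⟨y, hy, he⟩ := this
      rw [← hinj he]; exact hy

/-- the interval condition pulled back to a subgroup `M`. -/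
theorem interval_subgroupOf {G : Type*} [Group G] {A B M : Subgroup G} (hAB : A ≤ B) (hBM : B ≤ M)
    (h : ∀ X : Subgroup G, A ≤ X → X ≤ B → X = A ∨ X = B) :
    ∀ X : Subgroup M, A.subgroupOf M ≤ X → X ≤ B.subgroupOf M →
      X = A.subgroupOf M ∨ X = B.subgroupOf M := by
  intro X h1 h2
  have hinj : Function.Injective M.subtype := M.subtype_injective
  have hXB : X.map M.subtype ≤ B := by
    rintro _ ⟨x, hx, rfl⟩
    exact Subgroup.mem_subgroupOf.1 (h2 hx)
  have hback : ∀ C : Subgroup G, X.map M.subtype = C → X = C.subgroupOf M := by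
    intro C hC
    ext x
    rw [Subgroup.mem_subgroupOf, ← hC]
    constructor
    · intro hx; exact ⟨x, hx, rfl⟩
    · rintro ⟨y, hy, he⟩
      rw [← hinj he]; exact hy
  have hA : A ≤ X.map M.subtype := by
    intro a ha
    exact ⟨⟨a, hBM (hAB ha)⟩, h1 (Subgroup.mem_subgroupOf.2 ha), rfl⟩
  rcases h _ hA hXB with h3 | h3
  · exact Or.inl (hback _ h3)
  · exact Or.inr (hback _ h3)

/-- conjugation by `g` maps `zpowers s` into itself as soon as it does so for `s`. -/
theorem mem_normalizer_zpowers {G : Type*} [Group G] [Finite G] {g s : G}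
    (h : g * s * g⁻¹ ∈ Subgroup.zpowers s) :
    g ∈ Subgroup.normalizer ((Subgroup.zpowers s : Subgroup G) : Set G) := by
  apply Subgroup.mem_normalizer_fintype
  intro x hx
  obtain ⟨j, rfl⟩ := Subgroup.mem_zpowers_iff.1 hx
  rw [← conj_zpow]
  exact Subgroup.zpow_mem _ h j

/-- an element normalising `zpowers s` conjugates `s` to a power `s ^ j`, `0 < j < orderOf s`. -/
theorem exists_pow_of_mem_normalizer {G : Type*} [Group G] [Finite G] {g s : G} (hs : s ≠ 1)
    (h : g ∈ Subgroup.normalizer ((Subgroup.zpowers s : Subgroup G) : Set G)) :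
    ∃ j, 0 < j ∧ j < orderOf s ∧ g * s = s ^ j * g := by
  classical
  have h1 := (Subgroup.mem_normalizer_iff.1 h s).1 (Subgroup.mem_zpowers s)
  rw [← mem_powers_iff_mem_zpowers, mem_powers_iff_mem_range_orderOf] at h1
  obtain ⟨i, hi, he⟩ := Finset.mem_image.1 h1
  have he' : g * s = s ^ i * g := by rw [he]; group
  refine ⟨i, ?_, Finset.mem_range.1 hi, he'⟩
  rcases Nat.eq_zero_or_pos i with rfl | h0
  · exfalso
    rw [pow_zero, one_mul] at he'
    exact hs (mul_left_cancel (he'.trans (mul_one _).symm))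
  · exact h0

end Cfsg.Agent.Lib.Helper92
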